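import Mathlib
import Cfsg.Agent.Clifford.Gallagher
import Cfsg.Agent.CharBasics.Extra
import Cfsg.Agent.CharBasics.Burnside
import Cfsg.Agent.CharMult.Basic
import Cfsg.Agent.ClassesPi.Coset

set_option autoImplicit false
set_option linter.style.haveILetI false

open scoped ComplexConjugate commutatorElement
open Cfsg CfsgLib.CharBasics CfsgLib.Clifford

namespace CfsgLib.MaxDegree

universe u

variable {G : Type u} [Group G]

/-- All irreducible degrees are at most `b`. -/
def Bdd (G : Type u) [Group G] (b : ℕ) : Prop :=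
  ∀ χ : IrrCharacter G, charDegree (χ : G → ℂ) ≤ b

/-- An irreducible character of a subgroup lies in the restriction of one of the group. -/
theorem exists_over [Fintype G] (H : Subgroup G) [Fintype H] (η : IrrCharacter H) :
    ∃ (χ : IrrCharacter G) (ψ : H → ℂ), IsCharacter H ψ ∧
      (fun h : H => (χ : G → ℂ) h) = (η : H → ℂ) + ψ := by
  have hc := isCharacter_indFun H (isCharacter_of_irr η.2)
  have h1 : indFun H (η : H → ℂ) 1 ≠ 0 := by
    rw [apply_one hc, charDegree_indFun H (isCharacter_of_irr η.2), Nat.cast_ne_zero]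
    exact Nat.mul_ne_zero Subgroup.index_ne_zero_of_finite (charDegree_pos η.2).ne'
  obtain ⟨χ, m, hm, he⟩ := exists_constituent hc h1
  have hne : classInner (fun h : H => (χ : G → ℂ) h) (η : H → ℂ) ≠ 0 := by
    rw [classInner_indFun H _ (isClassFunction (isCharacter_of_irr χ.2))] at he
    intro h
    rw [classInner_comm, h] at he
    simp at he
    exact hm.ne' (by exact_mod_cast he.symm)
  obtain ⟨ψ, hψ, heq⟩ := split_constituent
    (CfsgLib.CharBasics.isCharacter_restrict (isCharacter_of_irr χ.2) H) η hne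
  exact ⟨χ, ψ, hψ, heq⟩

theorem charDegree_restrict {H : Subgroup G} (f : G → ℂ) :
    charDegree (fun h : H => f h) = charDegree f := rfl

theorem Bdd.subgroup [Finite G] {b : ℕ} (hb : Bdd G b) (H : Subgroup G) : Bdd H b := by
  intro η
  haveI := Fintype.ofFinite G
  haveI := Fintype.ofFinite H
  obtain ⟨χ, ψ, hψ, he⟩ := exists_over H η
  have h := congrArg charDegree he
  rw [charDegree_restrict, charDegree_add (isCharacter_of_irr η.2) hψ] at h
  have := hb χ
  omega

theorem Bdd.quotient [Finite G] {b : ℕ} (hb : Bdd G b) (N : Subgroup G) [N.Normal] : Bdd (G ⧸ N) b :=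
  fun φ => hb ⟨_, irr_comp_of_surjective φ.2 (QuotientGroup.mk' N) (QuotientGroup.mk'_surjective N)⟩

/-- A subgroup character of the largest degree is a restriction. -/
theorem exists_ext [Fintype G] {b : ℕ} (hb : Bdd G b) (H : Subgroup G) [Fintype H] (η : IrrCharacter H)
    (hη : b ≤ charDegree (η : H → ℂ)) :
    ∃ χ : IrrCharacter G, charDegree (χ : G → ℂ) = b ∧ ∀ h : H, (χ : G → ℂ) h = (η : H → ℂ) h := by
  obtain ⟨χ, ψ, hψ, he⟩ := exists_over H η
  have h := congrArg charDegree he
  rw [charDegree_restrict, charDegree_add (isCharacter_of_irr η.2) hψ] at h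
  have := hb χ
  have h0 : charDegree ψ = 0 := by omega
  have hψ0 : ψ = 0 := eq_zero_of_apply_one hψ (by rw [apply_one hψ, h0, Nat.cast_zero])
  refine ⟨χ, by omega, fun h => ?_⟩
  have := congrFun he h
  simpa [hψ0] using this

theorem not_bdd_iff {b : ℕ} (hb1 : 1 ≤ b) (h : ¬ Bdd G (b - 1)) :
    ∃ χ : IrrCharacter G, b ≤ charDegree (χ : G → ℂ) := by
  unfold Bdd at h
  push Not at h
  obtain ⟨χ, hχ⟩ := h
  exact ⟨χ, by omega⟩

theorem commutator_le_of_quotient_comm (N : Subgroup G) [N.Normal] (h : IsMulCommutative (G ⧸ N)) :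
    commutator G ≤ N := by
  rw [commutator_def, Subgroup.commutator_le]
  intro x _ y _
  rw [← QuotientGroup.eq_one_iff]
  have := h.is_comm.comm (QuotientGroup.mk' N x) (QuotientGroup.mk' N y)
  change QuotientGroup.mk' N ⁅x, y⁆ = 1
  rw [map_commutatorElement, commutatorElement_eq_one_iff_mul_comm]
  exact this

theorem quotient_comm_of_commutator_le (N : Subgroup G) [N.Normal] (h : commutator G ≤ N) :
    IsMulCommutative (G ⧸ N) := by
  refine ⟨⟨fun a b => ?_⟩⟩
  obtain ⟨x, rfl⟩ := QuotientGroup.mk'_surjective N a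
  obtain ⟨y, rfl⟩ := QuotientGroup.mk'_surjective N b
  rw [← commutatorElement_eq_one_iff_mul_comm, ← map_commutatorElement]
  exact (QuotientGroup.eq_one_iff _).mpr
    (h (Subgroup.commutator_mem_commutator (Subgroup.mem_top x) (Subgroup.mem_top y)))

/-- A character with the derived group in its kernel is linear. -/
theorem degree_one_of_commutator_le [Finite G] (χ : IrrCharacter G)
    (h : ∀ g ∈ commutator G, (χ : G → ℂ) g = (χ : G → ℂ) 1) : charDegree (χ : G → ℂ) = 1 := by
  obtain ⟨ψ, hψ⟩ := exists_quotient_irr χ (commutator G) h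
  haveI := quotient_comm_of_commutator_le (commutator G) le_rfl
  have h1 := (irr_comm_hom ψ.2).1
  have h2 := hψ 1
  rw [QuotientGroup.mk_one, h1, apply_one (isCharacter_of_irr χ.2)] at h2
  exact_mod_cast h2.symm

/-- No irreducible character of large degree stays irreducible on a normal subgroup with nonabelian
quotient, so such a normal subgroup has degrees at most half the bound. -/
theorem bdd_half [Finite G] {b : ℕ} (hb : Bdd G b) (N : Subgroup G) [N.Normal]
    (hq : ¬ IsMulCommutative (G ⧸ N)) : Bdd N (b / 2) := by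
  classical
  intro η
  by_contra hlt
  haveI := Fintype.ofFinite G
  haveI := Fintype.ofFinite N
  obtain ⟨χ, ψ, hψ, he⟩ := exists_over N η
  have hdeg := congrArg charDegree he
  rw [charDegree_restrict, charDegree_add (isCharacter_of_irr η.2) hψ] at hdeg
  obtain ⟨m, hm⟩ := classInner_character_nat
    (CfsgLib.CharBasics.isCharacter_restrict (isCharacter_of_irr χ.2) N) η
  obtain ⟨m', hm'⟩ := classInner_character_nat hψ η
  have hmpos : classInner (fun n : N => (χ : G → ℂ) n) (η : N → ℂ) ≠ 0 := by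
    rw [he, classInner_add_left, classInner_self η.2, hm']
    exact_mod_cast (by omega : 1 + m' ≠ 0)
  have h1 := restrict_one_eq χ.2 η.2 hmpos
  rw [hm, apply_one (isCharacter_of_irr χ.2), apply_one (isCharacter_of_irr η.2)] at h1
  have h1' : charDegree (χ : G → ℂ) = m * (inertia (η : N → ℂ)).index * charDegree (η : N → ℂ) := by
    exact_mod_cast h1
  have hbχ := hb χ
  have hηpos := charDegree_pos η.2
  have heq : charDegree ψ = 0 := by
    by_contra h0
    have h2 : 2 ≤ m * (inertia (η : N → ℂ)).index := by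
      by_contra h3
      interval_cases hk : m * (inertia (η : N → ℂ)).index <;> simp at h1' <;> omega
    have : 2 * charDegree (η : N → ℂ) ≤ charDegree (χ : G → ℂ) := h1' ▸ Nat.mul_le_mul_right _ h2
    omega
  have hψ0 : ψ = 0 := eq_zero_of_apply_one hψ (by rw [apply_one hψ, heq, Nat.cast_zero])
  have hext : ∀ n : N, (χ : G → ℂ) n = (η : N → ℂ) n := fun n => by simpa [hψ0] using congrFun he n
  obtain ⟨φ, hφ⟩ := CfsgLib.CharMult.exists_nonlinear hq
  have hφG : IsIrrCharacter G (fun g => (φ : G ⧸ N → ℂ) g) :=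
    irr_comp_of_surjective φ.2 (QuotientGroup.mk' N) (QuotientGroup.mk'_surjective N)
  have hker : ∀ n ∈ N, (φ : G ⧸ N → ℂ) ((n : G) : G ⧸ N) = (φ : G ⧸ N → ℂ) ((1 : G) : G ⧸ N) := fun n hn => by
    rw [(QuotientGroup.eq_one_iff n).mpr hn, QuotientGroup.mk_one]
  have hbij := gallagher_bijOn (φ := fun _ : N => (1 : ℂ)) (θ := (η : N → ℂ))
    CfsgLib.CharBasics.isIrrCharacter_one (fun g => rfl)
    (by convert η.2 using 1; funext n; simp) (isCharacter_of_irr χ.2) hext
  have hprod := (hbij.mapsTo (show (fun g : G => (φ : G ⧸ N → ℂ) g) ∈ _ from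
    ⟨hφG, (mem_over_one_iff hφG).mpr hker⟩)).1
  have h3 := hb ⟨_, hprod⟩
  have h4 : charDegree ((fun g : G => (φ : G ⧸ N → ℂ) g) * (χ : G → ℂ)) =
      charDegree (φ : G ⧸ N → ℂ) * charDegree (χ : G → ℂ) := by
    have e := apply_one (isCharacter_of_irr hprod)
    simp only [Pi.mul_apply, QuotientGroup.mk_one, apply_one (isCharacter_of_irr φ.2),
      apply_one (isCharacter_of_irr χ.2)] at e
    exact_mod_cast e.symm
  simp only at h3
  rw [h4] at h3
  have := charDegree_pos φ.2
  have h5 : 2 * charDegree (χ : G → ℂ) ≤ charDegree (φ : G ⧸ N → ℂ) * charDegree (χ : G → ℂ) :=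
    Nat.mul_le_mul_right _ (by omega)
  omega

/-- An element central in a subgroup carrying a restricted irreducible character is scalar. -/
theorem norm_eq_of_central [Finite G] (χ : IrrCharacter G) (H : Subgroup G) (η : IrrCharacter H)
    (hext : ∀ h : H, (χ : G → ℂ) h = (η : H → ℂ) h) (z : H) (hz : z ∈ Subgroup.center H) :
    ‖(χ : G → ℂ) z‖ = (charDegree (χ : G → ℂ) : ℝ) := by
  haveI := Fintype.ofFinite H
  have h := center_mul η.2 hz z⁻¹
  rw [mul_inv_cancel, apply_inv (isCharacter_of_irr η.2), Complex.mul_conj', ← hext z, ← hext 1] at h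
  simp only [Subgroup.coe_one] at h
  rw [apply_one (isCharacter_of_irr χ.2)] at h
  have h2 : ‖(χ : G → ℂ) z‖ ^ 2 = (charDegree (χ : G → ℂ) : ℝ) ^ 2 := by
    have h3 : ((‖(χ : G → ℂ) z‖ ^ 2 : ℝ) : ℂ) = (((charDegree (χ : G → ℂ) : ℝ) ^ 2 : ℝ) : ℂ) := by
      push_cast
      linear_combination -h
    exact_mod_cast h3
  exact (pow_left_inj₀ (norm_nonneg _) (Nat.cast_nonneg _) two_ne_zero).mp h2

/-- Some character moves any given nontrivial element. -/
theorem exists_moves [Finite G] {g : G} (hg : g ≠ 1) :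
    ∃ χ : IrrCharacter G, (χ : G → ℂ) g ≠ (χ : G → ℂ) 1 := by
  classical
  by_contra h
  push Not at h
  haveI := Fintype.ofFinite G
  haveI := finite_irrCharacter (G := G)
  haveI := Fintype.ofFinite (IrrCharacter G)
  have h1 : ∑ χ : IrrCharacter G, ((charDegree (χ : G → ℂ) : ℂ)) * (χ : G → ℂ) g = 0 := sum_mul_degree hg
  simp_rw [h, apply_one (isCharacter_of_irr (Subtype.prop _))] at h1
  have h2 : ((∑ χ : IrrCharacter G, charDegree (χ : G → ℂ) * charDegree (χ : G → ℂ) : ℕ) : ℂ) = 0 := by
    push_cast; exact h1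
  rw [Nat.cast_eq_zero, Finset.sum_eq_zero_iff] at h2
  have := h2 oneChar (Finset.mem_univ _)
  have h3 := charDegree_pos (G := G) oneChar.2
  simp_all

end CfsgLib.MaxDegree
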