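import Cfsg.Agent.MaxDegree.Basic
import Cfsg.Agent.Clifford.LinChar

set_option autoImplicit false
set_option linter.style.haveILetI false

open scoped ComplexConjugate commutatorElement
open Cfsg CfsgLib.CharBasics CfsgLib.Clifford

namespace CfsgLib.MaxDegree

universe u

variable {G M : Type u} [Group G] [Group M]

theorem hom_norm_one [Finite G] (μ : G →* ℂ) (g : G) : μ g * conj (μ g) = 1 := by
  have h : μ g ^ orderOf g = 1 := by rw [← map_pow, pow_orderOf_eq_one, map_one]
  have := Complex.norm_eq_one_of_pow_eq_one h (orderOf_pos g).ne'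
  rw [Complex.mul_conj', this]
  simp

theorem ker_eq_bot_of_nonlinear [Finite M]
    (hmin : ∀ K : Subgroup M, K.Normal → K ≠ ⊥ → commutator M ≤ K)
    (φ : IrrCharacter M) (hφ : charDegree (φ : M → ℂ) ≠ 1) :
    charKer (φ : M → ℂ) (isCharacter_of_irr φ.2) = ⊥ := by
  by_contra h
  exact hφ (degree_one_of_commutator_le φ fun g hg =>
    (mem_charKer _ g).mp (hmin _ (charKer_normal _) h hg))

/-- A quotient with nontrivial centre and derived group its least normal subgroup. -/
theorem central_case [Finite G] [Finite M] {b : ℕ} (hb : Bdd G b) (π : G →* M) (hπ : Function.Surjective π)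
    (hnab : ¬ IsMulCommutative M) (hmin : ∀ K : Subgroup M, K.Normal → K ≠ ⊥ → commutator M ≤ K)
    (hz : Subgroup.center M ≠ ⊥) : ∃ H : Subgroup G, H.index ≤ b ^ 2 ∧ Bdd H (b - 1) := by
  classical
  haveI := Fintype.ofFinite G
  haveI := Fintype.ofFinite M
  obtain ⟨φ, hφ⟩ := CfsgLib.CharMult.exists_nonlinear hnab
  have hker := ker_eq_bot_of_nonlinear hmin φ hφ
  have hVZ : commutator M ≤ Subgroup.center M := hmin _ inferInstance hz
  have hφc := isCharacter_of_irr φ.2
  set f := charDegree (φ : M → ℂ) with hf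
  have hf0 : (f : ℂ) ≠ 0 := Nat.cast_ne_zero.mpr (charDegree_pos φ.2).ne'
  have hfaith : ∀ z : M, (φ : M → ℂ) z = (φ : M → ℂ) 1 → z = 1 := fun z hz => by
    have : z ∈ charKer (φ : M → ℂ) hφc := (mem_charKer hφc z).mpr hz
    rwa [hker, Subgroup.mem_bot] at this
  -- vanishing off the centre
  have hvan : ∀ g : M, g ∉ Subgroup.center M → (φ : M → ℂ) g = 0 := by
    intro g hg
    obtain ⟨h, hh⟩ : ∃ h : M, h * g ≠ g * h := by
      by_contra hc
      push Not at hc
      exact hg (Subgroup.mem_center_iff.mpr hc)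
    have hzc : ⁅h, g⁆ ∈ Subgroup.center M :=
      hVZ (Subgroup.commutator_mem_commutator (Subgroup.mem_top h) (Subgroup.mem_top g))
    have h1 := center_mul φ.2 hzc g
    have h2 : (φ : M → ℂ) (⁅h, g⁆ * g) = (φ : M → ℂ) g := by
      rw [show ⁅h, g⁆ * g = h * g * h⁻¹ by rw [commutatorElement_def, inv_mul_cancel_right]]
      exact isClassFunction hφc g h
    rw [h2] at h1
    have h3 : ((φ : M → ℂ) 1 - (φ : M → ℂ) ⁅h, g⁆) * (φ : M → ℂ) g = 0 := by linear_combination h1
    rcases mul_eq_zero.mp h3 with h4 | h4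
    · exact absurd (commutatorElement_eq_one_iff_mul_comm.mp (hfaith _ (sub_eq_zero.mp h4).symm)) hh
    · exact h4
  have hnorm : ∀ z ∈ Subgroup.center M, ‖(φ : M → ℂ) z‖ ^ 2 = (f : ℝ) ^ 2 := by
    intro z hz'
    have h := center_mul φ.2 hz' z⁻¹
    rw [mul_inv_cancel, apply_inv hφc, Complex.mul_conj', apply_one hφc] at h
    have h3 : ((‖(φ : M → ℂ) z‖ ^ 2 : ℝ) : ℂ) = (((f : ℝ) ^ 2 : ℝ) : ℂ) := by
      push_cast; linear_combination -h
    exact_mod_cast h3
  have hidx : (Subgroup.center M).index = f ^ 2 := by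
    have hs := sum_normSq_irr φ
    rw [← Finset.sum_filter_add_sum_filter_not Finset.univ (· ∈ Subgroup.center M),
      Finset.sum_congr rfl (fun z hz' => hnorm z (Finset.mem_filter.mp hz').2),
      Finset.sum_eq_zero (s := Finset.univ.filter (fun z => ¬ z ∈ Subgroup.center M))
        (fun z hz' => by rw [hvan z (Finset.mem_filter.mp hz').2, norm_zero, sq, zero_mul]),
      add_zero, Finset.sum_const, nsmul_eq_mul] at hs
    have hcardZ : (Finset.univ.filter (· ∈ Subgroup.center M)).card = Nat.card (Subgroup.center M) := by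
      rw [Nat.card_eq_fintype_card, Fintype.card_subtype]
    rw [hcardZ] at hs
    have hs' : Nat.card (Subgroup.center M) * f ^ 2 = Nat.card M := by exact_mod_cast hs
    rw [← (Subgroup.center M).card_mul_index] at hs'
    exact (Nat.eq_of_mul_eq_mul_left Nat.card_pos hs').symm
  let H := (Subgroup.center M).comap π
  haveI : H.Normal := inferInstanceAs ((Subgroup.center M).comap π).Normal
  refine ⟨H, ?_, fun η => ?_⟩
  · rw [Subgroup.index_comap_of_surjective _ hπ, hidx]
    exact Nat.pow_le_pow_left ((hb.quotient π.ker) ⟨_, irr_comp_of_surjective φ.2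
      (QuotientGroup.quotientKerEquivOfSurjective π hπ).toMonoidHom
      (QuotientGroup.quotientKerEquivOfSurjective π hπ).surjective⟩ |>.trans' (by
        simp [charDegree, hf])) 2
  by_contra hlt
  haveI := Fintype.ofFinite H
  -- the central linear character
  let lam : H →* ℂ :=
    { toFun := fun h => (φ : M → ℂ) (π h) / (f : ℂ)
      map_one' := by
        simp only [Subgroup.coe_one, map_one, apply_one hφc]
        exact div_self hf0
      map_mul' := fun a c => by
        simp only [Subgroup.coe_mul, map_mul]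
        have h := center_mul φ.2 (show π (a : G) ∈ Subgroup.center M from a.2) (π c)
        rw [apply_one hφc] at h
        field_simp
        linear_combination h }
  obtain ⟨χ, hχb, hext⟩ := exists_ext hb H η (by omega)
  have hprod := isIrrCharacter_linear_mul η.2 lam
  have hdeg' : charDegree (fun h => lam h * (η : H → ℂ) h) = charDegree (η : H → ℂ) := by
    simp [charDegree]
  obtain ⟨X, hXb, hextX⟩ := exists_ext hb H ⟨_, hprod⟩ (show b ≤ charDegree (fun h => lam h * (η : H → ℂ) h) by
    rw [hdeg']; omega)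
  let Φ : G → ℂ := fun g => conj ((χ : G → ℂ) g) * (X : G → ℂ) g
  have hΦ : IsCharacter G Φ := CfsgLib.CharBasics.isCharacter_mul
    (isCharacter_star (isCharacter_of_irr χ.2)) (isCharacter_of_irr X.2)
  have hinner : classInner (fun h : H => Φ h) (fun h => lam h) = 1 := by
    rw [← classInner_self η.2]
    simp only [classInner, Φ, hext, hextX]
    congr 1
    refine Finset.sum_congr rfl fun h _ => ?_
    linear_combination ((η : H → ℂ) h * conj ((η : H → ℂ) h)) * hom_norm_one lam h
  obtain ⟨r, ψ, hψ, hdec⟩ := exists_decomp hΦ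
  have hdec' : (fun h : H => Φ h) = ∑ i, fun h : H => ψ i h := by
    funext h; rw [Finset.sum_apply, congrFun hdec (h : G), Finset.sum_apply]
  rw [hdec', classInner_sum_left] at hinner
  have hlamc : IsIrrCharacter H (fun h => lam h) := by
    have := isIrrCharacter_linear_mul CfsgLib.CharBasics.isIrrCharacter_one lam
    simpa using this
  choose m hm using fun i => classInner_character_nat
    (CfsgLib.CharBasics.isCharacter_restrict (isCharacter_of_irr (hψ i)) H) ⟨_, hlamc⟩
  simp only at hm
  simp_rw [hm] at hinner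
  have hsum : ∑ i, m i = 1 := by exact_mod_cast hinner
  obtain ⟨i, hi⟩ : ∃ i, m i ≠ 0 := by
    by_contra hc; push Not at hc; simp [hc] at hsum
  have hmi : m i = 1 := by
    have := Finset.single_le_sum (f := m) (fun j _ => Nat.zero_le _) (Finset.mem_univ i)
    omega
  have hinv : ∀ g : G, conjFun g (fun h : H => lam h) = fun h : H => lam h := by
    intro g; funext h
    show (φ : M → ℂ) (π (g * h * g⁻¹)) / (f : ℂ) = (φ : M → ℂ) (π h) / (f : ℂ)
    rw [map_mul, map_mul, map_inv, isClassFunction hφc]
  have hres := restrict_eq_smul_of_invariant (hψ i) hlamc hinv (by rw [hm i]; exact_mod_cast hi)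
  rw [hm i, hmi, Nat.cast_one, one_smul] at hres
  have h1 : ψ i 1 = 1 := by
    have := congrFun hres 1
    simpa using this
  obtain ⟨θ, hθ⟩ := exists_hom_of_linear (isCharacter_of_irr (hψ i)) h1
  have hD : ∀ d ∈ commutator G, θ d = 1 := by
    intro d hd
    have hle : commutator G ≤ θ.toHomUnits.ker := Abelianization.commutator_subset_ker _
    simpa using congrArg Units.val (MonoidHom.mem_ker.mp (hle hd))
  apply hnab
  refine ⟨⟨fun x y => ?_⟩⟩
  obtain ⟨a, rfl⟩ := hπ x
  obtain ⟨c, rfl⟩ := hπ y
  have hd : ⁅a, c⁆ ∈ commutator G := Subgroup.commutator_mem_commutator (Subgroup.mem_top a) (Subgroup.mem_top c)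
  have hdH : ⁅a, c⁆ ∈ H := by
    show π ⁅a, c⁆ ∈ Subgroup.center M
    rw [map_commutatorElement]
    exact hVZ (Subgroup.commutator_mem_commutator (Subgroup.mem_top _) (Subgroup.mem_top _))
  have h2 := congrFun hres ⟨_, hdH⟩
  simp only at h2
  rw [hθ] at h2
  simp only [hD _ hd] at h2
  have h3 : (φ : M → ℂ) (π ⁅a, c⁆) / (f : ℂ) = 1 := h2.symm
  rw [div_eq_one_iff_eq hf0, ← apply_one hφc, map_commutatorElement] at h3
  exact commutatorElement_eq_one_iff_mul_comm.mp (hfaith _ h3)

end CfsgLib.MaxDegree
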