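import Cfsg.Agent.MaxDegree.Central

set_option autoImplicit false
set_option linter.style.haveILetI false

open scoped ComplexConjugate commutatorElement
open Cfsg CfsgLib.CharBasics CfsgLib.Clifford

namespace CfsgLib.MaxDegree

universe u

variable {G M : Type u} [Group G] [Group M]

/-- A quotient with trivial centre and abelian derived group its least normal subgroup. -/
theorem frobenius_case [Finite G] [Finite M] {b : ℕ} (hb : Bdd G b) (π : G →* M) (hπ : Function.Surjective π)
    (hnab : ¬ IsMulCommutative M) (hmin : ∀ K : Subgroup M, K.Normal → K ≠ ⊥ → commutator M ≤ K)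
    (habV : IsMulCommutative (commutator M)) (hz : Subgroup.center M = ⊥) :
    (∃ H : Subgroup G, H.index ≤ b ^ 2 ∧ Bdd H (b - 1)) ∨
      (3 ≤ b ∧ ∃ H : Subgroup G, H.index ≤ b ^ 3 ∧ Bdd H (b / 2)) := by
  classical
  haveI := Fintype.ofFinite G
  haveI := Fintype.ofFinite M
  set V := commutator M with hV
  haveI := Fintype.ofFinite V
  have hVcomm : ∀ {v w : M}, v ∈ V → w ∈ V → v * w = w * v := fun {v w} hv hw =>
    congrArg Subtype.val (habV.is_comm.comm (⟨v, hv⟩ : V) ⟨w, hw⟩)
  have hcV : ∀ h g : M, ⁅h, g⁆ ∈ V := fun h g =>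
    Subgroup.commutator_mem_commutator (Subgroup.mem_top h) (Subgroup.mem_top g)
  have hVne : V ≠ ⊥ := fun h => hnab ⟨⟨fun x y => by
    rw [← commutatorElement_eq_one_iff_mul_comm, ← Subgroup.mem_bot, ← h]; exact hcV x y⟩⟩
  -- fixed points on V
  have hdich : ∀ g : M, (∀ v ∈ V, g * v = v * g) ∨ (∀ v ∈ V, g * v = v * g → v = 1) := by
    intro g
    let W : Subgroup M := V ⊓ Subgroup.centralizer {g}
    have hW : W.Normal := ⟨fun v hv h => by
      have hv1 : v ∈ V := hv.1
      have hv2 : h * v * h⁻¹ ∈ V := (inferInstance : V.Normal).conj_mem v hv1 h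
      refine ⟨hv2, Subgroup.mem_centralizer_singleton_iff.mpr ?_⟩
      have h1 : v * g = g * v := Subgroup.mem_centralizer_singleton_iff.mp hv.2
      have h2 : (h * v * h⁻¹) * (h * g * h⁻¹) = (h * g * h⁻¹) * (h * v * h⁻¹) := by
        simp only [mul_assoc, inv_mul_cancel_left]
        rw [← mul_assoc v g, h1, mul_assoc]
      have h3 := hVcomm hv2 (hcV h g)
      rw [show h * g * h⁻¹ = ⁅h, g⁆ * g by rw [commutatorElement_def, inv_mul_cancel_right], ← mul_assoc,
        h3, mul_assoc ⁅h, g⁆ g, mul_assoc] at h2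
      exact mul_left_cancel h2⟩
    by_cases hW' : W = ⊥
    · exact Or.inr fun v hv he => by
        have hmem : v ∈ W := ⟨hv, Subgroup.mem_centralizer_singleton_iff.mpr he.symm⟩
        rwa [hW', Subgroup.mem_bot] at hmem
    · exact Or.inl fun v hv => (Subgroup.mem_centralizer_singleton_iff.mp ((hmin W hW hW') hv).2).symm
  obtain ⟨g₀, hg₀⟩ : ∃ g : M, ¬ ∀ v ∈ V, g * v = v * g := by
    by_contra hc
    push Not at hc
    apply hVne
    rw [eq_bot_iff, ← hz]
    exact fun v hv => Subgroup.mem_center_iff.mpr fun g => hc g v hv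
  have hfix := (hdich g₀).resolve_left hg₀
  have hsurj : ∀ g : M, (∀ v ∈ V, g * v = v * g → v = 1) → ∀ w ∈ V, ∃ v ∈ V, ⁅v, g⁆ = w := by
    intro g hg w hw
    let φ : V → V := fun v => ⟨⁅(v : M), g⁆, hcV _ _⟩
    have hinj : Function.Injective φ := by
      intro v v' he
      have h1 : ⁅(v : M), g⁆ = ⁅(v' : M), g⁆ := congrArg Subtype.val he
      rw [commutatorElement_def, commutatorElement_def, mul_left_inj] at h1
      have h2 : g * ((v' : M)⁻¹ * v) = ((v' : M)⁻¹ * v) * g := by
        calc g * ((v' : M)⁻¹ * v) = (v' : M)⁻¹ * ((v' : M) * g * (v' : M)⁻¹) * v := by group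
          _ = (v' : M)⁻¹ * ((v : M) * g * (v : M)⁻¹) * v := by rw [h1]
          _ = ((v' : M)⁻¹ * v) * g := by group
      exact Subtype.ext (inv_mul_eq_one.mp (hg _ (V.mul_mem (V.inv_mem v'.2) v.2) h2)).symm
    obtain ⟨v, hv⟩ := (Finite.injective_iff_surjective.mp hinj) ⟨w, hw⟩
    exact ⟨v, v.2, congrArg Subtype.val hv⟩
  -- the complement
  set C := Subgroup.centralizer ({g₀} : Set M)
  have hfac : ∀ h : M, ∃ v ∈ V, v⁻¹ * h ∈ C := by
    intro h
    obtain ⟨v, hv, he⟩ := hsurj g₀ hfix ⁅h, g₀⁆ (hcV _ _)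
    refine ⟨v, hv, Subgroup.mem_centralizer_singleton_iff.mpr ?_⟩
    rw [commutatorElement_def, commutatorElement_def, mul_left_inj] at he
    calc v⁻¹ * h * g₀ = v⁻¹ * (h * g₀ * h⁻¹) * h := by group
      _ = v⁻¹ * (v * g₀ * v⁻¹) * h := by rw [he]
      _ = g₀ * (v⁻¹ * h) := by group
  have hVC : ∀ v ∈ V, v ∈ C → v = 1 := fun v hv hc =>
    hfix v hv (Subgroup.mem_centralizer_singleton_iff.mp hc).symm
  have hCab : ∀ c ∈ C, ∀ c' ∈ C, c * c' = c' * c := fun c hc c' hc' => by
    rw [← commutatorElement_eq_one_iff_mul_comm]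
    refine hVC _ (hcV _ _) ?_
    rw [commutatorElement_def]
    exact C.mul_mem (C.mul_mem (C.mul_mem hc hc') (C.inv_mem hc)) (C.inv_mem hc')
  have hcentV : ∀ y : M, (∀ v ∈ V, y * v = v * y) → y ∈ V := by
    intro y hy
    obtain ⟨v, hv, hc⟩ := hfac y
    have hzc : v⁻¹ * y ∈ Subgroup.center M := by
      rw [Subgroup.mem_center_iff]
      intro h
      obtain ⟨w, hw, hc'⟩ := hfac h
      have e1 : (v⁻¹ * y) * w = w * (v⁻¹ * y) := by
        rw [mul_assoc, hy w hw, ← mul_assoc, hVcomm (V.inv_mem hv) hw, mul_assoc]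
      have e2 := hCab _ hc _ hc'
      calc h * (v⁻¹ * y) = w * ((w⁻¹ * h) * (v⁻¹ * y)) := by group
        _ = w * ((v⁻¹ * y) * (w⁻¹ * h)) := by rw [e2]
        _ = w * (v⁻¹ * y) * (w⁻¹ * h) := by group
        _ = (v⁻¹ * y) * w * (w⁻¹ * h) := by rw [e1]
        _ = (v⁻¹ * y) * h := by group
    rw [hz, Subgroup.mem_bot, inv_mul_eq_one] at hzc
    exact hzc ▸ hv
  have hfpf : ∀ g : M, g ∉ V → ∀ v ∈ V, g * v = v * g → v = 1 := fun g hg =>
    (hdich g).resolve_left fun h => hg (hcentV g h)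
  -- the index of V is a degree
  obtain ⟨φ, hφ⟩ := CfsgLib.CharMult.exists_nonlinear hnab
  have hker := ker_eq_bot_of_nonlinear hmin φ hφ
  have hMb : charDegree (φ : M → ℂ) ≤ b := hb ⟨_, irr_comp_of_surjective φ.2 π hπ⟩ |>.trans' (by simp [charDegree])
  have hfb : V.index ≤ b := by
    refine le_trans ?_ hMb
    obtain ⟨θ, hθne⟩ : ∃ θ : IrrCharacter V, classInner (fun v : V => (φ : M → ℂ) v) (θ : V → ℂ) ≠ 0 := by
      obtain ⟨θ, hθ⟩ := exists_restrict_constituent V φ
      exact ⟨θ, fun h => hθ (by rw [classInner_comm, h, map_zero])⟩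
    haveI := habV
    obtain ⟨hθ1, hθm⟩ := irr_comm_hom θ.2
    have h1 := restrict_one_eq φ.2 θ.2 hθne
    by_cases htriv : (θ : V → ℂ) = fun _ => 1
    · exfalso
      have hr := restrict_eq_smul_of_invariant φ.2 θ.2 (fun g => by rw [htriv]; rfl) hθne
      obtain ⟨v, hv, hv1⟩ := (Subgroup.ne_bot_iff_exists_ne_one.mp hVne).choose_spec |> fun h =>
        (⟨((Subgroup.ne_bot_iff_exists_ne_one.mp hVne).choose : M), Subtype.mem _, fun e => h (Subtype.ext e)⟩ :
          ∃ v : M, v ∈ V ∧ v ≠ 1)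
      have e1 := congrFun hr ⟨v, hv⟩
      have e2 := congrFun hr 1
      simp only [Pi.smul_apply, htriv, Subgroup.coe_one] at e1 e2
      have : v ∈ charKer (φ : M → ℂ) (isCharacter_of_irr φ.2) := (mem_charKer _ v).mpr (e1.trans e2.symm)
      rw [hker, Subgroup.mem_bot] at this
      exact hv1 this
    have hin : inertia (θ : V → ℂ) = V := by
      refine le_antisymm (fun g hg => ?_) (le_inertia (isClassFunction (isCharacter_of_irr θ.2)))
      by_contra hgV
      apply htriv
      funext w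
      obtain ⟨v, hv, he⟩ := hsurj g (hfpf g hgV) w w.2
      have hgv : g * v * g⁻¹ ∈ V := (inferInstance : V.Normal).conj_mem v hv g
      have e1 : (θ : V → ℂ) ⟨g * v * g⁻¹, hgv⟩ = (θ : V → ℂ) ⟨v, hv⟩ := congrFun (mem_inertia.mp hg) ⟨v, hv⟩
      have e2 := hθm w ⟨g * v * g⁻¹, hgv⟩
      rw [show w * ⟨g * v * g⁻¹, hgv⟩ = (⟨v, hv⟩ : V) from Subtype.ext (by
        show (w : M) * (g * v * g⁻¹) = v
        rw [← he, commutatorElement_def]; group), e1] at e2
      have h0 : (θ : V → ℂ) ⟨v, hv⟩ ≠ 0 := by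
        intro h0
        have := hθm ⟨v, hv⟩ (⟨v, hv⟩⁻¹)
        rw [mul_inv_cancel, hθ1, h0, zero_mul] at this
        exact one_ne_zero this
      exact mul_right_cancel₀ h0 (e2.symm.trans (one_mul _).symm)
    obtain ⟨m, hm⟩ := classInner_character_nat
      (CfsgLib.CharBasics.isCharacter_restrict (isCharacter_of_irr φ.2) V) θ
    rw [hin, hm, hθ1, mul_one, apply_one (isCharacter_of_irr φ.2)] at h1
    have h1' : charDegree (φ : M → ℂ) = m * V.index := by exact_mod_cast h1
    have hm0 : m ≠ 0 := fun h => by rw [hm, h] at hθne; simp at hθne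
    rw [h1']
    exact Nat.le_mul_of_pos_left _ (Nat.pos_of_ne_zero hm0)
  let K := V.comap π
  haveI : K.Normal := inferInstanceAs (V.comap π).Normal
  haveI := Fintype.ofFinite K
  have hKi : K.index = V.index := Subgroup.index_comap_of_surjective _ hπ
  by_cases hK : Bdd K (b - 1)
  · exact Or.inl ⟨K, by rw [hKi]; calc V.index ≤ b := hfb
                                       _ ≤ b ^ 2 := Nat.le_self_pow two_ne_zero b, hK⟩
  right
  unfold Bdd at hK
  push Not at hK
  obtain ⟨ψ, hψ⟩ := hK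
  obtain ⟨χ, hχb, hext⟩ := exists_ext hb K ψ (by omega)
  have hψinv : ∀ g : G, conjFun g (ψ : K → ℂ) = ψ := by
    intro g; funext k
    rw [conjFun_apply, ← hext, ← hext]
    exact isClassFunction (isCharacter_of_irr χ.2) (k : G) g
  have hgV : ∃ g : M, g ∉ V := ⟨g₀, fun h => hg₀ fun v hv => hVcomm h hv⟩
  have hvan : ∀ k : K, π k ≠ 1 → (ψ : K → ℂ) k = 0 := by
    intro k hk
    obtain ⟨gM, hgM⟩ := hgV
    obtain ⟨g, rfl⟩ := hπ gM
    have hkV : π k ∈ V := k.2
    have hgk : π g * π k * (π g)⁻¹ ∈ V := (inferInstance : V.Normal).conj_mem _ hkV _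
    let w : V := ⟨π g * π k * (π g)⁻¹, hgk⟩ * ⟨π k, hkV⟩⁻¹
    have hw : w ≠ 1 := by
      intro h
      have h' : π g * π k * (π g)⁻¹ * (π k)⁻¹ = 1 := congrArg Subtype.val h
      exact hk (hfpf _ hgM _ hkV (by
        rw [mul_inv_eq_one, mul_inv_eq_iff_eq_mul] at h'
        exact h'))
    haveI := habV
    obtain ⟨ν, hν⟩ := exists_moves hw
    obtain ⟨hν1, hνm⟩ := irr_comm_hom ν.2
    let lam : K →* ℂ :=
      { toFun := fun x => (ν : V → ℂ) ⟨π x, x.2⟩
        map_one' := by
          rw [← hν1]; exact congrArg _ (Subtype.ext (map_one π))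
        map_mul' := fun x y => by
          rw [← hνm]; exact congrArg _ (Subtype.ext (map_mul π _ _)) }
    have hprod := isIrrCharacter_linear_mul ψ.2 lam
    have hdeg' : charDegree (fun h => lam h * (ψ : K → ℂ) h) = charDegree (ψ : K → ℂ) := by simp [charDegree]
    obtain ⟨X, -, hextX⟩ := exists_ext hb K ⟨_, hprod⟩ (show b ≤ charDegree (fun h => lam h * (ψ : K → ℂ) h) by
      rw [hdeg']; omega)
    let k' : K := ⟨g * k * g⁻¹, (inferInstance : K.Normal).conj_mem _ k.2 g⟩
    have h2 : (X : G → ℂ) (k' : G) = (X : G → ℂ) (k : G) := isClassFunction (isCharacter_of_irr X.2) (k : G) g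
    rw [hextX k', hextX k] at h2
    have h3 : (ψ : K → ℂ) k' = (ψ : K → ℂ) k := congrFun (hψinv g) k
    simp only [h3] at h2
    by_contra h0
    have h4 : lam k' = lam k := mul_right_cancel₀ h0 h2
    apply hν
    have h5 := hνm w ⟨π k, hkV⟩
    rw [inv_mul_cancel_right] at h5
    have e1 : (ν : V → ℂ) ⟨π g * π k * (π g)⁻¹, hgk⟩ = lam k' :=
      congrArg _ (Subtype.ext (by simp [k']))
    have e2 : (ν : V → ℂ) ⟨π k, hkV⟩ = lam k := rfl
    rw [e1, h4, e2] at h5
    have hne : lam k ≠ 0 := fun e => by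
      have := hom_norm_one lam k
      rw [e, zero_mul] at this
      exact zero_ne_one this
    rw [hν1]
    exact mul_right_cancel₀ hne (h5.symm.trans (one_mul _).symm)
  -- the norm
  let Nr : Subgroup K := π.ker.subgroupOf K
  have hNr : ∀ k : K, k ∈ Nr ↔ π k = 1 := fun k => Iff.rfl
  haveI := Fintype.ofFinite Nr
  have hidxNr : Nr.index = Nat.card V := by
    have : Nr = (π.comp K.subtype).ker := by ext k; exact Iff.rfl
    rw [this, Subgroup.index_ker]
    refine Nat.card_congr (Equiv.setCongr ?_)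
    ext v
    constructor
    · rintro ⟨k, rfl⟩; exact k.2
    · intro hv
      obtain ⟨g, rfl⟩ := hπ v
      exact ⟨⟨g, hv⟩, rfl⟩
  have hsumK : ∑ n : Nr, ‖(ψ : K → ℂ) (n : K)‖ ^ 2 = (Nat.card K : ℝ) := by
    rw [← sum_normSq_irr ψ, ← Finset.sum_subtype (Finset.univ.filter (· ∈ Nr)) (fun k => by simp)
      (fun k => ‖(ψ : K → ℂ) k‖ ^ 2)]
    refine Finset.sum_subset (Finset.filter_subset _ _) fun k _ hk => ?_
    rw [hvan k (fun h => hk (Finset.mem_filter.mpr ⟨Finset.mem_univ _, (hNr k).mpr h⟩)), norm_zero, sq, zero_mul]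
  have hψb : charDegree (ψ : K → ℂ) = b := le_antisymm (hb.subgroup K ψ) (by omega)
  have hm2 : Nat.card V ≤ b ^ 2 := by
    have h1 : (Nat.card K : ℝ) ≤ (Nat.card Nr : ℝ) * (b : ℝ) ^ 2 := by
      rw [← hsumK]
      refine (Finset.sum_le_card_nsmul Finset.univ (fun n : Nr => ‖(ψ : K → ℂ) (n : K)‖ ^ 2) ((b : ℝ) ^ 2)
        fun n _ => ?_).trans_eq ?_
      · exact pow_le_pow_left₀ (norm_nonneg _) (hψb ▸ norm_le (isCharacter_of_irr ψ.2) (n : K)) 2
      · rw [nsmul_eq_mul, Finset.card_univ, Nat.card_eq_fintype_card]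
    have h2 : Nat.card K ≤ Nat.card Nr * b ^ 2 := by exact_mod_cast h1
    rw [← Nr.card_mul_index, hidxNr] at h2
    exact Nat.le_of_mul_le_mul_left h2 Nat.card_pos
  have hVtop : V ≠ ⊤ := fun h => hgV.elim fun g hg => hg (by rw [h]; exact Subgroup.mem_top g)
  have hf2 : 1 < V.index := Subgroup.one_lt_index_of_ne_top hVtop
  refine ⟨?_, π.ker, ?_, ?_⟩
  · by_contra hb3
    have hb2 : b = 2 := by omega
    have hVi : V.index = 2 := by omega
    obtain ⟨g, hg⟩ := hgV
    have hVm : Nat.card V ≠ 1 := fun h => hVne (V.eq_bot_of_card_eq h)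
    have hodd : Odd (Nat.card V) := by
      rw [← Nat.not_even_iff_odd]
      intro hev
      haveI : Fact (Nat.Prime 2) := ⟨Nat.prime_two⟩
      obtain ⟨v, hv⟩ := exists_prime_orderOf_dvd_card' (G := V) 2 hev.two_dvd
      have hv1 : (v : M) ≠ 1 := fun h => by
        rw [OneMemClass.coe_eq_one.mp h, orderOf_one] at hv; omega
      -- v times its conjugate is fixed
      have hgg : g * g ∈ V := by
        have := Subgroup.mul_self_mem_of_index_two hVi g
        exact this
      set u := (v : M) * (g * v * g⁻¹) with hu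
      have hgv : g * (v : M) * g⁻¹ ∈ V := (inferInstance : V.Normal).conj_mem _ v.2 _
      have hconj2 : g * (g * (v : M) * g⁻¹) * g⁻¹ = v := by
        calc g * (g * (v : M) * g⁻¹) * g⁻¹ = (g * g) * v * (g * g)⁻¹ := by group
          _ = v * (g * g) * (g * g)⁻¹ := by rw [hVcomm hgg v.2]
          _ = v := by group
      have hufix : g * u = u * g := by
        rw [hu, ← mul_inv_eq_iff_eq_mul]
        calc g * ((v : M) * (g * v * g⁻¹)) * g⁻¹ = (g * v * g⁻¹) * (g * (g * v * g⁻¹) * g⁻¹) := by group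
          _ = (g * v * g⁻¹) * v := by rw [hconj2]
          _ = v * (g * v * g⁻¹) := hVcomm hgv v.2
      have hu1 := hfpf g hg u (V.mul_mem v.2 hgv) hufix
      have hvv : (v : M) * v = 1 := by
        have := pow_orderOf_eq_one v
        rw [hv, sq] at this
        exact congrArg Subtype.val this
      have : g * (v : M) * g⁻¹ = v := by
        calc g * (v : M) * g⁻¹ = ((v : M) * v) * (g * v * g⁻¹) := by rw [hvv, one_mul]
          _ = v * u := by rw [hu, mul_assoc]
          _ = v := by rw [hu1, mul_one]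
      exact hv1 (hfpf g hg v v.2 (mul_inv_eq_iff_eq_mul.mp this))
    subst hb2
    have hV3 : Nat.card V = 3 := by
      obtain ⟨j, hj⟩ := hodd
      omega
    -- a restriction of degree two cannot have norm three
    obtain ⟨r, θ, hθ, hdec⟩ := exists_decomp
      (CfsgLib.CharBasics.isCharacter_restrict (isCharacter_of_irr ψ.2) Nr)
    have hr : r ≤ 2 := by
      have h := congrFun hdec 1
      rw [Finset.sum_apply, Finset.sum_congr rfl (fun i _ => apply_one (isCharacter_of_irr (hθ i))),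
        Subgroup.coe_one, apply_one (isCharacter_of_irr ψ.2), hψb, ← Nat.cast_sum] at h
      have h' : 2 = ∑ i, charDegree (θ i) := by exact_mod_cast h
      rw [h']
      calc r = ∑ _i : Fin r, 1 := by simp
        _ ≤ _ := Finset.sum_le_sum fun i _ => charDegree_pos (hθ i)
    have hnorm : classInner (fun n : Nr => (ψ : K → ℂ) n) (fun n : Nr => (ψ : K → ℂ) n) = 3 := by
      simp only [classInner, Complex.mul_conj']
      rw [show (∑ n : Nr, ((‖(ψ : K → ℂ) (n : K)‖ : ℂ)) ^ 2) = (Nat.card K : ℂ) by exact_mod_cast hsumK,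
        ← Nr.card_mul_index, hidxNr, hV3, Nat.cast_mul, ← mul_assoc,
        inv_mul_cancel₀ (Nat.cast_ne_zero.mpr Nat.card_pos.ne'), one_mul]
      norm_num
    rw [hdec, classInner_sum_left] at hnorm
    simp_rw [classInner_sum_right] at hnorm
    have hval : ∀ i j, classInner (θ i) (θ j) = if θ i = θ j then 1 else 0 := fun i j => by
      split_ifs with h
      · rw [h]; exact classInner_self (hθ j)
      · exact classInner_ne (hθ i) (hθ j) h
    simp_rw [hval] at hnorm
    interval_cases r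
    · simp at hnorm
    · simp only [Fin.sum_univ_one, if_true] at hnorm; norm_num at hnorm
    · simp only [Fin.sum_univ_two, if_true] at hnorm
      by_cases h : θ 0 = θ 1
      · simp only [h, if_true] at hnorm; norm_num at hnorm
      · simp only [h, Ne.symm h, if_false] at hnorm; norm_num at hnorm
  · calc π.ker.index = Nat.card M := by rw [Subgroup.index_ker, MonoidHom.range_eq_top.mpr hπ]; exact Subgroup.card_top
      _ = Nat.card V * V.index := V.card_mul_index.symm
      _ ≤ b ^ 2 * b := Nat.mul_le_mul hm2 hfb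
      _ = b ^ 3 := by ring
  · refine bdd_half hb π.ker fun hcomm => hnab ⟨⟨fun x y => ?_⟩⟩
    let e := QuotientGroup.quotientKerEquivOfSurjective π hπ
    simpa using congrArg e (hcomm.is_comm.comm (e.symm x) (e.symm y))

end CfsgLib.MaxDegree
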