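import Cfsg.Agent.MaxDegree.Perfect
import Cfsg.Agent.MaxDegree.Frobenius

set_option autoImplicit false
set_option linter.style.haveILetI false

open scoped commutatorElement Nat
open Cfsg CfsgLib.CharBasics

namespace CfsgLib.MaxDegree

universe u

variable {G : Type u} [Group G]

theorem solvable_quotient_case [Finite G] {b : ℕ} (hb : Bdd G b)
    (hne : ⁅commutator G, commutator G⁆ ≠ commutator G) :
    (∃ H : Subgroup G, H.index ≤ b ^ 2 ∧ Bdd H (b - 1)) ∨
      (3 ≤ b ∧ ∃ H : Subgroup G, H.index ≤ b ^ 3 ∧ Bdd H (b / 2)) := by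
  set D := commutator G with hD
  let P : Subgroup G → Prop := fun X => X.Normal ∧ ⁅D, D⁆ ≤ X ∧ ¬ D ≤ X
  obtain ⟨N, -, hN⟩ := (Set.toFinite {X | P X}).exists_le_maximal
    (show P ⁅D, D⁆ from ⟨inferInstance, le_rfl, fun h => hne (le_antisymm (Subgroup.commutator_le_left D D) h)⟩)
  obtain ⟨hNn, hDN, hnD⟩ := hN.1
  haveI := hNn
  let π := QuotientGroup.mk' N
  have hπ : Function.Surjective π := QuotientGroup.mk'_surjective N
  have hmapD : commutator (G ⧸ N) = D.map π := by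
    rw [commutator_def, hD, commutator_def, Subgroup.map_commutator, Subgroup.map_top_of_surjective π hπ]
  have hnab : ¬ IsMulCommutative (G ⧸ N) := fun h => hnD (commutator_le_of_quotient_comm N h)
  have hmin : ∀ K : Subgroup (G ⧸ N), K.Normal → K ≠ ⊥ → commutator (G ⧸ N) ≤ K := by
    intro K hK hne'
    haveI := hK
    by_contra hc
    have hle : N ≤ K.comap π := fun a ha => by
      simp [Subgroup.mem_comap, π, (QuotientGroup.eq_one_iff a).mpr ha]
    have h2 := hN.2 (show P (K.comap π) from ⟨inferInstance, hDN.trans hle, fun h => hc (by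
      rw [hmapD]; exact Subgroup.map_le_iff_le_comap.mpr h)⟩) hle
    apply hne'
    rw [eq_bot_iff, ← Subgroup.map_comap_eq_self_of_surjective hπ K]
    exact (Subgroup.map_mono h2).trans_eq (QuotientGroup.map_mk'_self N)
  have habV : IsMulCommutative (commutator (G ⧸ N)) := by
    refine ⟨⟨fun a c => Subtype.ext ?_⟩⟩
    have hle : ⁅commutator (G ⧸ N), commutator (G ⧸ N)⁆ ≤ ⊥ := by
      rw [hmapD, ← Subgroup.map_commutator]
      exact (Subgroup.map_mono hDN).trans_eq (QuotientGroup.map_mk'_self N)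
    exact commutatorElement_eq_one_iff_mul_comm.mp
      (Subgroup.mem_bot.mp (hle (Subgroup.commutator_mem_commutator a.2 c.2)))
  by_cases hz : Subgroup.center (G ⧸ N) = ⊥
  · exact frobenius_case hb π hπ hnab hmin habV hz
  · exact Or.inl (central_case hb π hπ hnab hmin hz)

theorem arith_one {b i j : ℕ} (hb : 2 ≤ b) (hi : i ≤ b ^ 2) (hj : j ≤ (b - 1)! ^ 2) : j * i ≤ b ! ^ 2 := by
  obtain ⟨c, rfl⟩ : ∃ c, b = c + 1 := ⟨b - 1, by omega⟩
  rw [Nat.add_sub_cancel] at hj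
  calc j * i ≤ c ! ^ 2 * (c + 1) ^ 2 := Nat.mul_le_mul hj hi
    _ = _ := by rw [Nat.factorial_succ]; ring

theorem arith_two {b i j : ℕ} (hb : 3 ≤ b) (hi : i ≤ b ^ 3) (hj : j ≤ (b / 2)! ^ 2) : j * i ≤ b ! ^ 2 := by
  obtain ⟨c, rfl⟩ : ∃ c, b = c + 2 := ⟨b - 2, by omega⟩
  have h1 : ((c + 2) / 2)! ≤ c ! := Nat.factorial_le (by omega)
  calc j * i ≤ c ! ^ 2 * (c + 2) ^ 3 := Nat.mul_le_mul (hj.trans (Nat.pow_le_pow_left h1 2)) hi
    _ = c ! ^ 2 * (c + 2) ^ 2 * (c + 2) := by ring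
    _ ≤ c ! ^ 2 * (c + 2) ^ 2 * (c + 1) ^ 2 := Nat.mul_le_mul_left _ (by nlinarith)
    _ = _ := by rw [Nat.factorial_succ, Nat.factorial_succ]; ring

theorem arith_three {b i j : ℕ} (hb : 5 ≤ b) (hi : i ≤ b * (b ^ 2 * (b ^ 2 + 1))) (hj : j ≤ (b / 2)! ^ 2) :
    j * i ≤ b ! ^ 2 := by
  obtain ⟨c, rfl⟩ : ∃ c, b = c + 3 := ⟨b - 3, by omega⟩
  have h1 : ((c + 3) / 2)! ≤ c ! := Nat.factorial_le (by omega)
  calc j * i ≤ c ! ^ 2 * ((c + 3) * ((c + 3) ^ 2 * ((c + 3) ^ 2 + 1))) :=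
        Nat.mul_le_mul (hj.trans (Nat.pow_le_pow_left h1 2)) hi
    _ = c ! ^ 2 * (c + 3) ^ 2 * ((c + 3) * ((c + 3) ^ 2 + 1)) := by ring
    _ ≤ c ! ^ 2 * (c + 3) ^ 2 * ((c + 2) * (c + 1)) ^ 2 := Nat.mul_le_mul_left _ (by
        have h2 : 2 * (c * c) ≤ c * (c * c) := Nat.mul_le_mul_right _ (show 2 ≤ c by omega)
        nlinarith [h2, Nat.mul_le_mul_left c h2, Nat.mul_le_mul_left c (show 2 ≤ c by omega)])
    _ = _ := by rw [Nat.factorial_succ, Nat.factorial_succ, Nat.factorial_succ]; ring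

theorem exists_abelian : ∀ (b : ℕ) (G : Type u) [Group G] [Finite G], Bdd G b →
    ∃ A : Subgroup G, (∀ x ∈ A, ∀ y ∈ A, x * y = y * x) ∧ A.index ≤ b ! ^ 2 := by
  intro b
  induction b using Nat.strong_induction_on with
  | _ b ih =>
    intro G _ _ hb
    by_cases hab : IsMulCommutative G
    · exact ⟨⊤, fun x _ y _ => hab.is_comm.comm x y, by
        rw [Subgroup.index_top]; exact Nat.one_le_pow _ _ (Nat.factorial_pos b)⟩
    obtain ⟨ph, hph⟩ := CfsgLib.CharMult.exists_nonlinear hab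
    have hphb := hb ph
    have hph0 := charDegree_pos ph.2
    have hb2 : 2 ≤ b := by omega
    have hlift : ∀ (H : Subgroup G) (A : Subgroup H), (∀ x ∈ A, ∀ y ∈ A, x * y = y * x) →
        A.index * H.index ≤ b ! ^ 2 →
        ∃ A : Subgroup G, (∀ x ∈ A, ∀ y ∈ A, x * y = y * x) ∧ A.index ≤ b ! ^ 2 := by
      intro H A hA hle
      refine ⟨A.map H.subtype, ?_, ?_⟩
      · rintro _ ⟨x, hx, rfl⟩ _ ⟨y, hy, rfl⟩
        exact congrArg H.subtype (hA x hx y hy)
      · rwa [Subgroup.index_map_subtype]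
    have key : (∃ H : Subgroup G, H.index ≤ b ^ 2 ∧ Bdd H (b - 1)) ∨
        (3 ≤ b ∧ ∃ H : Subgroup G, H.index ≤ b ^ 3 ∧ Bdd H (b / 2)) ∨
        (5 ≤ b ∧ ∃ H : Subgroup G, H.index ≤ b * (b ^ 2 * (b ^ 2 + 1)) ∧ Bdd H (b / 2)) := by
      by_cases hperf : ⁅commutator G, commutator G⁆ = commutator G
      · have hne : commutator G ≠ ⊥ := fun h => hab ⟨⟨fun x y => by
          rw [← commutatorElement_eq_one_iff_mul_comm, ← Subgroup.mem_bot, ← h]
          exact Subgroup.commutator_mem_commutator (Subgroup.mem_top x) (Subgroup.mem_top y)⟩⟩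
        rcases perfect_case hb hne hperf with h | h
        · exact Or.inl h
        · exact Or.inr (Or.inr h)
      · rcases solvable_quotient_case hb hperf with h | h
        · exact Or.inl h
        · exact Or.inr (Or.inl h)
    rcases key with ⟨H, hi, hH⟩ | ⟨h3, H, hi, hH⟩ | ⟨h5, H, hi, hH⟩
    · obtain ⟨A, hA, hAi⟩ := ih (b - 1) (by omega) H hH
      exact hlift H A hA (arith_one hb2 hi hAi)
    · obtain ⟨A, hA, hAi⟩ := ih (b / 2) (by omega) H hH
      exact hlift H A hA (arith_two h3 hi hAi)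
    · obtain ⟨A, hA, hAi⟩ := ih (b / 2) (by omega) H hH
      exact hlift H A hA (arith_three h5 hi hAi)

end CfsgLib.MaxDegree
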