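import Cfsg.Agent.MaxDegree.Simple

set_option autoImplicit false
set_option linter.style.haveILetI false

open scoped ComplexConjugate commutatorElement
open Cfsg CfsgLib.CharBasics CfsgLib.Clifford

namespace CfsgLib.MaxDegree

universe u

variable {G : Type u} [Group G]

theorem kPi_univ (G : Type u) [Group G] [Finite G] : ClassesPi.kPi Set.univ G = Nat.card (ConjClasses G) :=
  Nat.card_congr (Equiv.subtypeUnivEquiv fun c => by
    obtain ⟨x, rfl⟩ := ConjClasses.mk_surjective c
    exact ⟨x, rfl, fun r _ _ => trivial⟩)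

theorem card_classes_le_mul [Finite G] (K : Subgroup G) [K.Normal] :
    Nat.card (ConjClasses G) ≤ Nat.card (ConjClasses K) * Nat.card (ConjClasses (G ⧸ K)) := by
  haveI := Fintype.ofFinite G
  simpa [kPi_univ] using CfsgLib.ClassesPi.kPi_le_kPi_mul_kPi Set.univ K

theorem card_le_sq_mul_classes [Finite G] {b : ℕ} (hb : Bdd G b) :
    Nat.card G ≤ b ^ 2 * Nat.card (ConjClasses G) := by
  classical
  haveI := Fintype.ofFinite G
  haveI := finite_irrCharacter (G := G)
  haveI := Fintype.ofFinite (IrrCharacter G)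
  rw [← sum_sq_degree (G := G), ← card_irr, Nat.card_eq_fintype_card, ← Finset.card_univ, mul_comm, ← smul_eq_mul]
  exact Finset.sum_le_card_nsmul _ _ _ fun χ _ => Nat.pow_le_pow_left (hb χ) 2

theorem two_mul_classes_le [Finite G] (hperf : commutator G = ⊤) (h : 1 < Nat.card G) :
    2 * Nat.card (ConjClasses G) ≤ Nat.card G := by
  classical
  haveI := Fintype.ofFinite G
  haveI := finite_irrCharacter (G := G)
  haveI := Fintype.ofFinite (IrrCharacter G)
  have hone : charDegree ((oneChar : IrrCharacter G) : G → ℂ) = 1 := by simp [charDegree, oneChar]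
  have h1 : Nat.card {χ : IrrCharacter G // charDegree (χ : G → ℂ) = 1} = 1 := by
    rw [CfsgLib.CharMult.card_linear, hperf, Subgroup.index_top]
  haveI := (Nat.card_eq_one_iff_unique.mp h1).1
  have hbig : ∀ χ ∈ Finset.univ.erase (oneChar : IrrCharacter G), 4 ≤ charDegree (χ : G → ℂ) ^ 2 := by
    intro χ hχ
    have hd : charDegree (χ : G → ℂ) ≠ 1 := fun hd => Finset.ne_of_mem_erase hχ
      (congrArg Subtype.val (Subsingleton.elim (⟨χ, hd⟩ : {χ : IrrCharacter G // charDegree (χ : G → ℂ) = 1})
        ⟨oneChar, hone⟩))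
    have := charDegree_pos χ.2
    have : 2 ≤ charDegree (χ : G → ℂ) := by omega
    nlinarith
  have hs := sum_sq_degree (G := G)
  rw [← Finset.add_sum_erase _ _ (Finset.mem_univ oneChar), hone] at hs
  have h2 := Finset.card_nsmul_le_sum _ _ _ hbig
  rw [Finset.card_erase_of_mem (Finset.mem_univ _), Finset.card_univ, smul_eq_mul] at h2
  rw [← card_irr, Nat.card_eq_fintype_card (α := IrrCharacter G)]
  omega

theorem perfect_of_surjective {H : Type u} [Group H] (f : G →* H) (hf : Function.Surjective f)
    (h : commutator G = ⊤) : commutator H = ⊤ := by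
  rw [eq_top_iff, ← Subgroup.map_top_of_surjective f hf]
  conv_lhs => rw [← h]
  rw [commutator_def, Subgroup.map_commutator, commutator_def]
  exact Subgroup.commutator_mono le_top le_top

/-- In a perfect group pairwise comaximal normal subgroups behave independently. -/
theorem sup_inf_eq_top [Finite G] (hperf : commutator G = ⊤) {A B C : Subgroup G}
    [A.Normal] [B.Normal] [C.Normal] (hA : A ⊔ C = ⊤) (hB : B ⊔ C = ⊤) : (A ⊓ B) ⊔ C = ⊤ := by
  have hmap : ∀ X : Subgroup G, X ⊔ C = ⊤ → X.map (QuotientGroup.mk' C) = ⊤ := fun X hX => by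
    rw [← Subgroup.map_top_of_surjective _ (QuotientGroup.mk'_surjective C), ← hX, Subgroup.map_sup,
      QuotientGroup.map_mk'_self, sup_bot_eq]
  have h : (⊤ : Subgroup (G ⧸ C)) ≤ (A ⊓ B).map (QuotientGroup.mk' C) := by
    rw [← perfect_of_surjective _ (QuotientGroup.mk'_surjective C) hperf, commutator_def]
    conv_lhs => arg 1; rw [← hmap A hA]
    conv_lhs => arg 2; rw [← hmap B hB]
    rw [← Subgroup.map_commutator]
    exact Subgroup.map_mono (Subgroup.commutator_le_inf A B)
  have h2 := Subgroup.comap_mono (f := QuotientGroup.mk' C) h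
  rw [Subgroup.comap_top, Subgroup.comap_map_eq, QuotientGroup.ker_mk'] at h2
  exact top_le_iff.mp h2

/-- A perfect group with `r` pairwise comaximal proper normal subgroups has few classes. -/
theorem two_pow_mul_classes_le [Finite G] (hperf : commutator G = ⊤) (s : Finset (Subgroup G))
    (hn : ∀ E ∈ s, E.Normal) (hp : ∀ E ∈ s, E ≠ ⊤) (hco : ∀ E ∈ s, ∀ E' ∈ s, E ≠ E' → E ⊔ E' = ⊤) :
    2 ^ s.card * Nat.card (ConjClasses G) ≤ Nat.card G := by
  classical
  suffices h : ∀ t ⊆ s, ∃ F : Subgroup G, F.Normal ∧ (∀ E ∈ s, E ∉ t → F ⊔ E = ⊤) ∧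
      2 ^ t.card * Nat.card (ConjClasses G) ≤ Nat.card (ConjClasses F) * F.index by
    obtain ⟨F, -, -, hF⟩ := h s subset_rfl
    have hcl : Nat.card (ConjClasses F) ≤ Nat.card F :=
      Nat.card_le_card_of_surjective _ ConjClasses.mk_surjective
    exact hF.trans ((Nat.mul_le_mul_right _ hcl).trans_eq F.card_mul_index)
  intro t
  induction t using Finset.induction_on with
  | empty =>
    intro _
    refine ⟨⊤, inferInstance, fun E _ _ => top_sup_eq E, ?_⟩
    rw [Finset.card_empty, pow_zero, one_mul, Subgroup.index_top, mul_one]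
    exact (Nat.card_le_card_of_surjective _
      (ConjClasses.map_surjective (f := (Subgroup.topEquiv (G := G)).toMonoidHom) Subgroup.topEquiv.surjective))
  | @insert E t hEt ih =>
    intro hts
    obtain ⟨F, hFn, hco', hle⟩ := ih ((Finset.subset_insert E t).trans hts)
    have hEs : E ∈ s := hts (Finset.mem_insert_self E t)
    haveI := hFn
    haveI := hn E hEs
    have hFE : F ⊔ E = ⊤ := hco' E hEs hEt
    refine ⟨F ⊓ E, inferInstance, fun E' hE' hnot => ?_, ?_⟩
    · haveI := hn E' hE'
      rw [Finset.mem_insert, not_or] at hnot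
      exact sup_inf_eq_top hperf (hco' E' hE' hnot.2) (hco E hEs E' hE' (Ne.symm hnot.1))
    let f : F →* G ⧸ E := (QuotientGroup.mk' E).comp F.subtype
    have hfs : Function.Surjective f := by
      intro q
      obtain ⟨g, rfl⟩ := QuotientGroup.mk'_surjective E q
      have hg : g ∈ F ⊔ E := hFE ▸ Subgroup.mem_top g
      obtain ⟨x, hx, e, he, rfl⟩ := Subgroup.mem_sup_of_normal_right.mp hg
      exact ⟨⟨x, hx⟩, by simp [f, (QuotientGroup.eq_one_iff e).mpr he]⟩
    have hker : f.ker = E.subgroupOf F := by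
      ext x
      simp [f, Subgroup.mem_subgroupOf]
    have hK := card_classes_le_mul f.ker
    have hQ : Nat.card (ConjClasses (F ⧸ f.ker)) ≤ Nat.card (ConjClasses (G ⧸ E)) :=
      Nat.card_le_card_of_surjective _ (ConjClasses.map_surjective
        (f := (QuotientGroup.quotientKerEquivOfSurjective f hfs).symm.toMonoidHom)
        (QuotientGroup.quotientKerEquivOfSurjective f hfs).symm.surjective)
    have hker2 : Nat.card (ConjClasses f.ker) ≤ Nat.card (ConjClasses (F ⊓ E : Subgroup G)) := by
      let e : (F ⊓ E : Subgroup G) →* f.ker :=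
        { toFun := fun x => ⟨⟨(x : G), x.2.1⟩, by rw [hker]; exact x.2.2⟩
          map_one' := rfl
          map_mul' := fun _ _ => rfl }
      refine Nat.card_le_card_of_surjective _ (ConjClasses.map_surjective (f := e) fun y => ?_)
      refine ⟨⟨(y : F).1, (y : F).2, ?_⟩, rfl⟩
      exact (SetLike.ext_iff.mp hker _).mp y.2
    have hE1 : 1 < Nat.card (G ⧸ E) := by
      rw [← Subgroup.index_eq_card]
      exact Subgroup.one_lt_index_of_ne_top (hp E hEs)
    have h2 := two_mul_classes_le (perfect_of_surjective _ (QuotientGroup.mk'_surjective E) hperf) hE1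
    rw [← Subgroup.index_eq_card] at h2
    have hidx : (F ⊓ E).index = F.index * E.index := by
      have h3 : (F ⊓ E).relIndex F = E.index := by
        rw [inf_comm, Subgroup.inf_relIndex_right, Subgroup.relIndex, ← hker, Subgroup.index_ker,
          Subgroup.index_eq_card]
        exact Nat.card_congr ((Equiv.setCongr (MonoidHom.range_eq_top.mpr hfs ▸ Subgroup.coe_top)).trans
          (Equiv.Set.univ _))
      rw [← Subgroup.relIndex_mul_index (inf_le_left : F ⊓ E ≤ F), h3, mul_comm]
    rw [Finset.card_insert_of_notMem hEt, pow_succ, hidx]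
    calc 2 ^ t.card * 2 * Nat.card (ConjClasses G) = 2 * (2 ^ t.card * Nat.card (ConjClasses G)) := by ring
      _ ≤ 2 * (Nat.card (ConjClasses F) * F.index) := Nat.mul_le_mul_left 2 hle
      _ ≤ 2 * ((Nat.card (ConjClasses (F ⊓ E : Subgroup G)) * Nat.card (ConjClasses (G ⧸ E))) * F.index) :=
        Nat.mul_le_mul_left 2 (Nat.mul_le_mul_right _ (hK.trans (Nat.mul_le_mul hker2 hQ)))
      _ = Nat.card (ConjClasses (F ⊓ E : Subgroup G)) * (2 * Nat.card (ConjClasses (G ⧸ E))) * F.index := by ring
      _ ≤ Nat.card (ConjClasses (F ⊓ E : Subgroup G)) * E.index * F.index :=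
        Nat.mul_le_mul_right _ (Nat.mul_le_mul_left _ h2)
      _ = Nat.card (ConjClasses (F ⊓ E : Subgroup G)) * (F.index * E.index) := by ring

theorem le_of_two_pow_le_sq {r b : ℕ} (h : 2 ^ r ≤ b ^ 2) : r ≤ b := by
  by_contra hr
  have h1 : 2 ^ (b + 1) ≤ b ^ 2 := (Nat.pow_le_pow_right (by omega) (by omega)).trans h
  have h2 : ∀ n : ℕ, n ^ 2 < 2 ^ (n + 1) := by
    intro n
    induction n with
    | zero => norm_num
    | succ n ih =>
      rw [pow_succ 2 (n + 1)]
      rcases Nat.lt_or_ge n 3 with hn | hn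
      · interval_cases n <;> norm_num
      · nlinarith
  exact absurd h1 (not_le.mpr (h2 b))

/-- The case in which the derived group is perfect and nontrivial. -/
theorem perfect_case [Finite G] {b : ℕ} (hb : Bdd G b) (hne : commutator G ≠ ⊥)
    (hperf : ⁅commutator G, commutator G⁆ = commutator G) :
    (∃ H : Subgroup G, H.index ≤ b ^ 2 ∧ Bdd H (b - 1)) ∨
    (5 ≤ b ∧ ∃ H : Subgroup G, H.index ≤ b * (b ^ 2 * (b ^ 2 + 1)) ∧ Bdd H (b / 2)) := by
  classical
  haveI := Fintype.ofFinite G
  set D := commutator G with hD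
  let P : Subgroup G → Prop := fun E => E.Normal ∧ E < D
  have hfin : {E | P E}.Finite := Set.toFinite _
  let S : Finset (Subgroup G) := Finset.univ.filter fun E => Maximal P E
  have hPbot : P ⊥ := ⟨inferInstance, bot_lt_iff_ne_bot.mpr hne⟩
  have hDD : commutator D = ⊤ := by
    apply Subgroup.map_injective D.subtype_injective
    rw [commutator_def, Subgroup.map_commutator, ← MonoidHom.range_eq_map, D.range_subtype, hperf]
  have hle : ∀ E : Subgroup G, E.Normal → E < D → ∃ E' ∈ S, E ≤ E' := fun E hEn hE => by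
    obtain ⟨E', h1, h2⟩ := hfin.exists_le_maximal (show P E from ⟨hEn, hE⟩)
    exact ⟨E', Finset.mem_filter.mpr ⟨Finset.mem_univ _, h2⟩, h1⟩
  have hSspec : ∀ E ∈ S, E.Normal ∧ E < D ∧ ∀ E' : Subgroup G, E'.Normal → E' < D → E ≤ E' → E' ≤ E := by
    intro E hE
    obtain ⟨-, hM⟩ := Finset.mem_filter.mp hE
    exact ⟨hM.1.1, hM.1.2, fun E' h1 h2 h3 => hM.2 ⟨h1, h2⟩ h3⟩
  -- the number of maximal ones
  have hr : S.card ≤ b := by
    apply le_of_two_pow_le_sq
    let s : Finset (Subgroup D) := S.image fun E => E.subgroupOf D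
    have hinj : Set.InjOn (fun E : Subgroup G => E.subgroupOf D) (S : Set (Subgroup G)) := by
      intro E hE E' hE' h
      have h' := congrArg (fun X : Subgroup D => X.map D.subtype) h
      simpa [Subgroup.subgroupOf_map_subtype, inf_eq_left.mpr (hSspec E hE).2.1.le,
        inf_eq_left.mpr (hSspec E' hE').2.1.le] using h'
    have hcard : s.card = S.card := Finset.card_image_of_injOn hinj
    have h := two_pow_mul_classes_le hDD s ?_ ?_ ?_
    · rw [hcard] at h
      have h2 := card_le_sq_mul_classes (hb.subgroup D)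
      have h3 : 0 < Nat.card (ConjClasses D) := Nat.card_pos
      exact Nat.le_of_mul_le_mul_right (h.trans h2) h3
    · intro X hX
      obtain ⟨E, hE, rfl⟩ := Finset.mem_image.mp hX
      haveI := (hSspec E hE).1
      infer_instance
    · intro X hX h
      obtain ⟨E, hE, rfl⟩ := Finset.mem_image.mp hX
      exact (hSspec E hE).2.1.not_ge (Subgroup.subgroupOf_eq_top.mp h)
    · intro X hX X' hX' hne'
      obtain ⟨E, hE, rfl⟩ := Finset.mem_image.mp hX
      obtain ⟨E', hE', rfl⟩ := Finset.mem_image.mp hX'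
      obtain ⟨hn1, hl1, hm1⟩ := hSspec E hE
      obtain ⟨hn2, hl2, hm2⟩ := hSspec E' hE'
      rw [← Subgroup.subgroupOf_sup hl1.le hl2.le, Subgroup.subgroupOf_eq_top]
      by_contra hnle
      have hlt : E ⊔ E' < D := lt_of_le_not_ge (sup_le hl1.le hl2.le) hnle
      haveI := hn1
      haveI := hn2
      have e1 := hm1 (E ⊔ E') inferInstance hlt le_sup_left
      have e2 := hm2 (E ⊔ E') inferInstance hlt le_sup_right
      exact hne' (by rw [le_antisymm (le_sup_right.trans e1) (le_sup_left.trans e2)])
  obtain ⟨E0, hE0, -⟩ := hle ⊥ inferInstance hPbot.2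
  -- the centralisers modulo these
  let NE : Subgroup G → Subgroup G := fun E => (Subgroup.center (G ⧸ E.normalCore)).comap (QuotientGroup.mk' E.normalCore)
  have hNE : ∀ E ∈ S, ∀ x : G, x ∈ NE E ↔ ∀ g : G, ⁅g, x⁆ ∈ E := by
    intro E hE x
    haveI := (hSspec E hE).1
    have hcore : E.normalCore = E := Subgroup.normalCore_eq_self E
    simp only [NE, Subgroup.mem_comap, Subgroup.mem_center_iff]
    constructor
    · intro h g
      rw [← hcore, ← QuotientGroup.eq_one_iff]
      change QuotientGroup.mk' E.normalCore ⁅g, x⁆ = 1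
      rw [map_commutatorElement, commutatorElement_eq_one_iff_mul_comm]
      exact h _
    · intro h q
      obtain ⟨g, rfl⟩ := QuotientGroup.mk'_surjective _ q
      rw [← commutatorElement_eq_one_iff_mul_comm, ← map_commutatorElement]
      exact (QuotientGroup.eq_one_iff _).mpr (by rw [hcore]; exact h g)
  have hNEn : ∀ E, (NE E).Normal := fun E => inferInstanceAs ((Subgroup.comap _ _).Normal)
  have hNEq : ∀ E ∈ S, Bdd (NE E) (b / 2) := by
    intro E hE
    haveI := hNEn E
    refine bdd_half hb (NE E) fun hcomm => ?_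
    have hDle : D ≤ NE E := commutator_le_of_quotient_comm _ hcomm
    have h1 : ⁅D, D⁆ ≤ E := by
      rw [Subgroup.commutator_le]
      intro g _ x hx
      exact (hNE E hE x).mp (hDle hx) g
    exact (hSspec E hE).2.1.not_ge (hperf ▸ h1)
  by_cases hsmall : ∃ x : G, (∀ E ∈ S, x ∉ NE E) ∧ (Subgroup.centralizer ({x} : Set G)).index ≤ b ^ 2
  · obtain ⟨x, hxU, hxi⟩ := hsmall
    left
    refine ⟨_, hxi, fun η => ?_⟩
    by_contra hlt
    obtain ⟨χ, hχb, hext⟩ := exists_ext hb (Subgroup.centralizer ({x} : Set G)) η (by omega)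
    have hxc : x ∈ Subgroup.centralizer ({x} : Set G) := Subgroup.mem_centralizer_singleton_iff.mpr rfl
    have hz : (⟨x, hxc⟩ : Subgroup.centralizer ({x} : Set G)) ∈ Subgroup.center _ :=
      Subgroup.mem_center_iff.mpr fun y => Subtype.ext (Subgroup.mem_centralizer_singleton_iff.mp y.2)
    have hn := norm_eq_of_central χ _ η hext _ hz
    have hc := isCharacter_of_irr χ.2
    haveI := charKer_normal hc
    have hker : ∀ g : G, ⁅g, x⁆ ∈ charKer (χ : G → ℂ) hc ⊓ D := fun g =>
      ⟨by rw [commutatorElement_def]; exact commutator_mem_charKer χ.2 hn g,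
        Subgroup.commutator_mem_commutator (Subgroup.mem_top g) (Subgroup.mem_top x)⟩
    rcases (inf_le_right : charKer (χ : G → ℂ) hc ⊓ D ≤ D).lt_or_eq with h | h
    · obtain ⟨E, hE, hle'⟩ := hle _ inferInstance h
      exact hxU E hE ((hNE E hE x).mpr fun g => hle' (hker g))
    · have h1 := degree_one_of_commutator_le χ fun g hg => (mem_charKer hc g).mp ((inf_eq_right.mp h) hg)
      rw [hχb] at h1
      obtain ⟨φ, hφ⟩ := CfsgLib.CharMult.exists_nonlinear (G := G) fun hcomm => hne (by
        rw [eq_bot_iff, hD, commutator_def, Subgroup.commutator_le]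
        intro a _ c _
        rw [Subgroup.mem_bot, commutatorElement_eq_one_iff_mul_comm]
        exact hcomm.is_comm.comm a c)
      have := hb φ
      have := charDegree_pos φ.2
      omega
  · push Not at hsmall
    right
    -- a simple quotient of the perfect derived group gives five
    have h5 : 5 ≤ b := by
      by_contra h5
      haveI : Nontrivial D := (Subgroup.nontrivial_iff_ne_bot D).mpr hne
      let Q : Subgroup D → Prop := fun X => X.Normal ∧ X ≠ ⊤
      obtain ⟨X, -, hX⟩ := (Set.toFinite {X | Q X}).exists_le_maximal (show Q ⊥ from ⟨inferInstance, bot_ne_top⟩)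
      haveI := hX.1.1
      haveI : Nontrivial (D ⧸ X) := QuotientGroup.nontrivial_iff.mpr hX.1.2
      haveI : IsSimpleGroup (D ⧸ X) := by
        refine ⟨fun Y hY => ?_⟩
        by_contra hcon
        push Not at hcon
        haveI := hY
        have hle' : X ≤ Y.comap (QuotientGroup.mk' X) := fun a ha => by
          simp [Subgroup.mem_comap, (QuotientGroup.eq_one_iff a).mpr ha]
        have h2 := hX.2 (show Q (Y.comap (QuotientGroup.mk' X)) from ⟨inferInstance, fun h => hcon.2 (by
          rw [← Subgroup.map_comap_eq_self_of_surjective (QuotientGroup.mk'_surjective X) Y, h,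
            Subgroup.map_top_of_surjective _ (QuotientGroup.mk'_surjective X)])⟩) hle'
        apply hcon.1
        rw [eq_bot_iff, ← Subgroup.map_comap_eq_self_of_surjective (QuotientGroup.mk'_surjective X) Y]
        exact (Subgroup.map_mono h2).trans_eq (QuotientGroup.map_mk'_self X)
      have hperfQ := perfect_of_surjective _ (QuotientGroup.mk'_surjective X) hDD
      refine not_bdd_four (G := D ⧸ X) (fun hcomm => ?_) (fun φ => le_trans ((hb.subgroup D).quotient X φ) (by omega))
      rw [commutator_def, eq_top_iff] at hperfQ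
      obtain ⟨a, ha⟩ := exists_ne (1 : D ⧸ X)
      have : (⊤ : Subgroup (D ⧸ X)) ≤ ⊥ := hperfQ.trans (Subgroup.commutator_le.mpr fun p _ q _ => by
        rw [Subgroup.mem_bot, commutatorElement_eq_one_iff_mul_comm]
        exact hcomm.is_comm.comm p q)
      exact ha (Subgroup.mem_bot.mp (this (Subgroup.mem_top a)))
    refine ⟨h5, ?_⟩
    by_contra hno
    push Not at hno
    let U : Finset G := Finset.univ.filter fun x => ∃ E ∈ S, x ∈ NE E
    have hk : Nat.card (ConjClasses G) * Nat.card G =
        ∑ x : G, Nat.card (Subgroup.centralizer ({x} : Set G)) := by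
      haveI := finite_irrCharacter (G := G)
      haveI := Fintype.ofFinite (IrrCharacter G)
      have h1 : (Nat.card (IrrCharacter G) * Nat.card G : ℝ) =
          ∑ g : G, (Nat.card (Subgroup.centralizer ({g} : Set G)) : ℝ) := by
        rw [← Finset.sum_congr rfl (fun g _ => sum_normSq_col g), Finset.sum_comm,
          Finset.sum_congr rfl (fun χ _ => sum_normSq_irr χ)]
        simp
      rw [← card_irr]
      exact_mod_cast h1
    set k := Nat.card (ConjClasses G)
    set n := Nat.card G
    have hn0 : 0 < n := Nat.card_pos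
    have hbound : k * n * (b ^ 2 + 1) ≤ U.card * n * (b ^ 2 + 1) + n * n := by
      rw [hk, Finset.sum_mul, ← Finset.sum_add_sum_compl U]
      refine Nat.add_le_add ?_ ?_
      · calc ∑ x ∈ U, Nat.card (Subgroup.centralizer ({x} : Set G)) * (b ^ 2 + 1)
            ≤ ∑ _x ∈ U, n * (b ^ 2 + 1) := Finset.sum_le_sum fun x _ =>
              Nat.mul_le_mul_right _ (Subgroup.card_le_card_group _)
          _ = U.card * n * (b ^ 2 + 1) := by rw [Finset.sum_const, smul_eq_mul, mul_assoc]
      · calc ∑ x ∈ Uᶜ, Nat.card (Subgroup.centralizer ({x} : Set G)) * (b ^ 2 + 1)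
            ≤ ∑ _x ∈ Uᶜ, n := Finset.sum_le_sum fun x hx => by
              have hxU : ∀ E ∈ S, x ∉ NE E := fun E hE hx' =>
                Finset.mem_compl.mp hx (Finset.mem_filter.mpr ⟨Finset.mem_univ _, E, hE, hx'⟩)
              calc _ ≤ Nat.card (Subgroup.centralizer ({x} : Set G)) *
                    (Subgroup.centralizer ({x} : Set G)).index := Nat.mul_le_mul_left _ (hsmall x hxU)
                _ = n := Subgroup.card_mul_index _
          _ ≤ n * n := by
              rw [Finset.sum_const, smul_eq_mul]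
              exact Nat.mul_le_mul_right _ (by
                simpa [n, Nat.card_eq_fintype_card] using Finset.card_le_univ Uᶜ)
    have hb2 : n ≤ b ^ 2 * k := card_le_sq_mul_classes hb
    have hU : U.card ≤ ∑ E ∈ S, Nat.card (NE E) := by
      refine le_trans (Finset.card_le_card (t := S.biUnion fun E => Finset.univ.filter (· ∈ NE E)) ?_) ?_
      · intro x hx
        obtain ⟨-, E, hE, hx'⟩ := Finset.mem_filter.mp hx
        exact Finset.mem_biUnion.mpr ⟨E, hE, Finset.mem_filter.mpr ⟨Finset.mem_univ _, hx'⟩⟩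
      · refine Finset.card_biUnion_le.trans (Finset.sum_le_sum fun E _ => le_of_eq ?_)
        rw [Nat.card_eq_fintype_card, Fintype.card_subtype]
    have hidx : ∀ E ∈ S, Nat.card (NE E) * (b * (b ^ 2 * (b ^ 2 + 1))) < n := by
      intro E hE
      by_contra hle'
      push Not at hle'
      rw [show n = Nat.card (NE E) * (NE E).index from (Subgroup.card_mul_index _).symm] at hle'
      exact hno _ (Nat.le_of_mul_le_mul_left hle' Nat.card_pos) (hNEq E hE)
    have hsum : (∑ E ∈ S, Nat.card (NE E)) * (b * (b ^ 2 * (b ^ 2 + 1))) < S.card * n := by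
      rw [Finset.sum_mul]
      exact (Finset.sum_lt_sum_of_nonempty ⟨E0, hE0⟩ hidx).trans_eq (by rw [Finset.sum_const, smul_eq_mul])
    have h1 : n ≤ U.card * (b ^ 2 * (b ^ 2 + 1)) := by
      have : n * n * (b ^ 2 + 1) ≤ n * (U.card * (b ^ 2 * (b ^ 2 + 1)) + b ^ 2 * n) := by
        calc n * n * (b ^ 2 + 1) ≤ b ^ 2 * k * n * (b ^ 2 + 1) :=
              Nat.mul_le_mul_right _ (Nat.mul_le_mul_right _ hb2)
          _ = b ^ 2 * (k * n * (b ^ 2 + 1)) := by ring
          _ ≤ b ^ 2 * (U.card * n * (b ^ 2 + 1) + n * n) := Nat.mul_le_mul_left _ hbound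
          _ = _ := by ring
      rw [mul_assoc] at this
      have := Nat.le_of_mul_le_mul_left this hn0
      nlinarith
    have h2 : n * b ≤ (∑ E ∈ S, Nat.card (NE E)) * (b * (b ^ 2 * (b ^ 2 + 1))) :=
      calc n * b ≤ U.card * (b ^ 2 * (b ^ 2 + 1)) * b := Nat.mul_le_mul_right _ h1
        _ ≤ (∑ E ∈ S, Nat.card (NE E)) * (b ^ 2 * (b ^ 2 + 1)) * b :=
          Nat.mul_le_mul_right _ (Nat.mul_le_mul_right _ hU)
        _ = _ := by ring
    have h3 : S.card * n ≤ b * n := Nat.mul_le_mul_right _ hr
    have := h2.trans_lt (hsum.trans_le h3)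
    rw [mul_comm] at this
    exact lt_irrefl _ this

end CfsgLib.MaxDegree
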