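import Cfsg.Agent.MaxDegree.Basic

set_option autoImplicit false
set_option linter.style.haveILetI false

open scoped ComplexConjugate commutatorElement
open Cfsg CfsgLib.CharBasics CfsgLib.Clifford

namespace CfsgLib.MaxDegree

universe u

variable {G : Type u} [Group G]

theorem multiset_signs (m : Multiset ℂ) (hm : ∀ x ∈ m, x = 1 ∨ x = -1) :
    ∃ r : ℕ, r ≤ Multiset.card m ∧ m.sum = (Multiset.card m : ℂ) - 2 * r ∧ m.prod = (-1) ^ r := by
  induction m using Multiset.induction_on with
  | empty => exact ⟨0, le_rfl, by simp, by simp⟩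
  | cons a s ih =>
    obtain ⟨r, hr, hs, hp⟩ := ih (fun x hx => hm x (Multiset.mem_cons_of_mem hx))
    rcases hm a (Multiset.mem_cons_self a s) with rfl | rfl
    · exact ⟨r, by simp; omega, by simp [hs]; ring, by simp [hp]⟩
    · exact ⟨r + 1, by simp; omega, by simp [hs]; ring, by simp [hp]; ring⟩

/-- In a perfect group an involution has an even number of eigenvalues `-1` in each representation. -/
theorem exists_even_minus [Finite G] (hperf : commutator G = ⊤) (χ : IrrCharacter G) {t : G} (ht : t * t = 1) :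
    ∃ r : ℕ, Even r ∧ r ≤ charDegree (χ : G → ℂ) ∧
      (χ : G → ℂ) t = (charDegree (χ : G → ℂ) : ℂ) - 2 * r := by
  obtain ⟨n, ρ, hρ, hχ⟩ := χ.2
  have hdeg : charDegree (χ : G → ℂ) = n := by
    rw [← hχ]; simp [charDegree]
  have hT : ρ t * ρ t = 1 := by rw [← map_mul, ht, map_one]
  have hroots : ∀ x ∈ (ρ t).charpoly.roots, x = 1 ∨ x = -1 := by
    intro μ hμ
    have hev : Module.End.HasEigenvalue (ρ t) μ :=
      (Module.End.hasEigenvalue_iff_isRoot_charpoly (ρ t) μ).mpr (Polynomial.isRoot_of_mem_roots hμ)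
    obtain ⟨v, hv⟩ := hev.exists_hasEigenvector
    have h1 : ρ t v = μ • v := hv.apply_eq_smul
    have h2 : (μ * μ) • v = v := by
      have := LinearMap.congr_fun hT v
      rw [Module.End.mul_apply, h1, map_smul, h1, smul_smul, Module.End.one_apply] at this
      exact this
    have h3 : (μ * μ - 1) • v = 0 := by rw [sub_smul, h2, one_smul, sub_self]
    rcases smul_eq_zero.mp h3 with h | h
    · exact mul_self_eq_one_iff.mp (sub_eq_zero.mp h)
    · exact absurd h hv.2
  obtain ⟨r, hr, hs, hp⟩ := multiset_signs _ hroots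
  have hcard : Multiset.card (ρ t).charpoly.roots = n := by
    rw [← (IsAlgClosed.splits (ρ t).charpoly).natDegree_eq_card_roots, LinearMap.charpoly_natDegree]
    simp
  rw [hcard] at hr hs
  have hdet : LinearMap.det (ρ t) = 1 := by
    let f : G →* ℂ := LinearMap.det.comp ρ
    have hle : commutator G ≤ f.toHomUnits.ker := Abelianization.commutator_subset_ker _
    rw [hperf] at hle
    have := congrArg Units.val (MonoidHom.mem_ker.mp (hle (Subgroup.mem_top t)))
    simpa [f] using this
  rw [← LinearMap.det_toMatrix (Pi.basisFun ℂ (Fin n)), Matrix.det_eq_prod_roots_charpoly,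
    LinearMap.charpoly_toMatrix, hp] at hdet
  refine ⟨r, ?_, hdeg.symm ▸ hr, ?_⟩
  · by_contra hodd
    rw [(Nat.not_even_iff_odd.mp hodd).neg_one_pow] at hdet
    norm_num at hdet
  · rw [hdeg, ← hχ, Representation.character,
      Module.End.trace_eq_sum_roots_charpoly_of_splits (IsAlgClosed.splits _), hs]

/-- A nonabelian simple group has an irreducible degree at least five. -/
theorem not_bdd_four [Finite G] [IsSimpleGroup G] (hab : ¬ IsMulCommutative G) (hb : Bdd G 4) : False := by
  classical
  haveI := Fintype.ofFinite G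
  haveI := finite_irrCharacter (G := G)
  haveI := Fintype.ofFinite (IrrCharacter G)
  have hperf : commutator G = ⊤ := by
    rcases (inferInstance : (commutator G).Normal).eq_bot_or_eq_top with h | h
    · refine absurd ⟨⟨fun x y => ?_⟩⟩ hab
      have : ⁅x, y⁆ ∈ commutator G := Subgroup.commutator_mem_commutator (Subgroup.mem_top x) (Subgroup.mem_top y)
      rwa [h, Subgroup.mem_bot, commutatorElement_eq_one_iff_mul_comm] at this
    · exact h
  have hlin : ∀ χ : IrrCharacter G, charDegree (χ : G → ℂ) = 1 → χ = oneChar := by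
    have h1 : Nat.card {χ : IrrCharacter G // charDegree (χ : G → ℂ) = 1} = 1 := by
      rw [CfsgLib.CharMult.card_linear, hperf, Subgroup.index_top]
    intro χ hχ
    haveI := (Nat.card_eq_one_iff_unique.mp h1).1
    exact congrArg Subtype.val (Subsingleton.elim (⟨χ, hχ⟩ : {χ : IrrCharacter G // charDegree (χ : G → ℂ) = 1})
      ⟨oneChar, by simp [charDegree, oneChar]⟩)
  have hscal : ∀ χ : IrrCharacter G, χ ≠ oneChar → ∀ t : G, t ≠ 1 →
      ‖(χ : G → ℂ) t‖ ≠ (charDegree (χ : G → ℂ) : ℝ) := by
    intro χ hχ t ht hn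
    have hc := isCharacter_of_irr χ.2
    have hcomm : ∀ x : G, x * t * x⁻¹ * t⁻¹ ∈ charKer (χ : G → ℂ) hc := fun x =>
      commutator_mem_charKer χ.2 hn x
    rcases (charKer_normal hc).eq_bot_or_eq_top with h | h
    · have hcen : t ∈ Subgroup.center G := Subgroup.mem_center_iff.mpr fun x => by
        have := hcomm x
        rw [h, Subgroup.mem_bot] at this
        exact mul_inv_eq_iff_eq_mul.mp (mul_inv_eq_one.mp this)
      rcases (inferInstance : (Subgroup.center G).Normal).eq_bot_or_eq_top with hz | hz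
      · exact ht (Subgroup.mem_bot.mp (hz ▸ hcen))
      · exact hab ⟨⟨fun x y => (Subgroup.mem_center_iff.mp (hz ▸ Subgroup.mem_top y : y ∈ Subgroup.center G) x)⟩⟩
    · refine hχ (hlin χ (degree_one_of_commutator_le χ fun g _ => ?_))
      exact (mem_charKer hc g).mp (h ▸ Subgroup.mem_top g)
  have hone : charDegree ((oneChar : IrrCharacter G) : G → ℂ) = 1 := by simp [charDegree, oneChar]
  by_cases heven : 2 ∣ Nat.card G
  · haveI : Fact (Nat.Prime 2) := ⟨Nat.prime_two⟩
    obtain ⟨t, ht⟩ := exists_prime_orderOf_dvd_card' 2 heven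
    have ht1 : t ≠ 1 := fun h => by rw [h, orderOf_one] at ht; omega
    have ht2 : t * t = 1 := by rw [← sq, ← ht, pow_orderOf_eq_one]
    have key : ∀ χ : IrrCharacter G, χ ≠ oneChar → ∃ z : ℤ, 3 ∣ z ∧
        (charDegree (χ : G → ℂ) : ℂ) * (χ : G → ℂ) t = z := by
      intro χ hχ
      have hd : charDegree (χ : G → ℂ) ≠ 1 := fun h => hχ (hlin χ h)
      have hd0 := charDegree_pos χ.2
      have hd4 := hb χ
      obtain ⟨r, hev, hr, hval⟩ := exists_even_minus hperf χ ht2
      refine ⟨(charDegree (χ : G → ℂ) : ℤ) * ((charDegree (χ : G → ℂ) : ℤ) - 2 * r), ?_, by rw [hval]; push_cast; ring⟩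
      have hs := hscal χ hχ t ht1
      rw [hval] at hs
      obtain ⟨s, rfl⟩ := hev
      have hs2 : s ≤ 2 := by omega
      interval_cases hdd : charDegree (χ : G → ℂ) <;> interval_cases s <;> first | omega | norm_num at * | norm_num
    choose! z hz3 hz using key
    have hsum := sum_mul_degree (G := G) ht1
    rw [← Finset.add_sum_erase _ _ (Finset.mem_univ oneChar), hone, Nat.cast_one, one_mul,
      oneChar_apply, Finset.sum_congr rfl (fun χ hχ => hz χ (Finset.ne_of_mem_erase hχ)), ← Int.cast_sum] at hsum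
    have h3 : (3 : ℤ) ∣ ∑ χ ∈ Finset.univ.erase oneChar, z χ :=
      Finset.dvd_sum fun χ hχ => hz3 χ (Finset.ne_of_mem_erase hχ)
    have : (1 : ℤ) + ∑ χ ∈ Finset.univ.erase oneChar, z χ = 0 := by exact_mod_cast hsum
    omega
  · have hsum := sum_sq_degree (G := G)
    have hd3 : ∀ χ ∈ Finset.univ.erase (oneChar : IrrCharacter G), charDegree (χ : G → ℂ) ^ 2 = 9 := by
      intro χ hχ
      have hd1 : charDegree (χ : G → ℂ) ≠ 1 := fun h => Finset.ne_of_mem_erase hχ (hlin χ h)
      have hdvd := degree_dvd χ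
      have hd0 := charDegree_pos χ.2
      have hd4 := hb χ
      interval_cases hdd : charDegree (χ : G → ℂ)
      · omega
      · exact absurd hdvd heven
      · rfl
      · exact absurd (dvd_trans ⟨2, rfl⟩ hdvd) heven
    rw [← Finset.add_sum_erase _ _ (Finset.mem_univ oneChar), hone, Finset.sum_congr rfl hd3,
      Finset.sum_const, smul_eq_mul] at hsum
    rcases Nat.eq_zero_or_pos (Finset.univ.erase (oneChar : IrrCharacter G)).card with h0 | h0
    · rw [h0] at hsum
      haveI : Subsingleton G := (Nat.card_eq_one_iff_unique.mp (by omega)).1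
      exact hab ⟨⟨fun x y => Subsingleton.elim _ _⟩⟩
    · obtain ⟨χ, hχ⟩ := Finset.card_pos.mp h0
      have h3 := hd3 χ hχ
      have hdvd := degree_dvd χ
      have h33 : charDegree (χ : G → ℂ) = 3 := by
        have : charDegree (χ : G → ℂ) < 4 := by nlinarith
        interval_cases hdd : charDegree (χ : G → ℂ) <;> simp_all
      rw [h33, ← hsum] at hdvd
      omega

end CfsgLib.MaxDegree
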